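import Cfsg.Agent.CosetEnum.ON.Alt5.Data

/-! Generated: checks of facts. -/

set_option autoImplicit false
set_option maxRecDepth 100000

namespace CfsgLib.CosetEnum.ON.Alt5

open CfsgLib.CosetEnum

theorem facts0 : checkFacts epF (fun x => bif Nat.blt x 2 then x ^^^ 1 else x) words 5 0 [0x1, 0x0, 0x0, 0x20000500002000020000200005, 0x0, 0x0, 0x0, 0x0, 0x0, 0xe0001100002000080000200005, 0x0, 0x0, 0x1400017000020000b0000200005, 0x0, 0x0, 0x1a0001d000020000e0000200005, 0x0, 0x0, 0x0, 0x0, 0x0, 0x0, 0x0, 0x0, 0x2c0002f00002000170000200005, 0x0, 0x2c000200000e00008000050000d0001d0002b000330000000016000030000c, 0x0, 0x3200037000020001b0000400005, 0x0, 0x0, 0x3a0003d000020001e0000200005, 0x0, 0x3c000220001000008000030000b0001500025000410000900020000050000c, 0x0, 0x400004500002000220000200005, 0x0, 0x0, 0x480004b00002000250000200005, 0x0, 0x4a00026000160000a000070000d0001b000290004f0000900027000050000c, 0x0, 0x4e0005300002000290000200005, 0x0, 0x0, 0x0, 0x0, 0x0, 0x0, 0x0, 0x0, 0x620006500002000320000200005, 0x0, 0x64000560002e0002000013000230003b0005b000690000900034000050000c,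 0x0, 0x680006d00002000360000200005, 0x0, 0x0, 0x700007300002000390000200005, 0x0, 0x7000058000360002a0001e000290005300061000770000000038000030000c, 0x0, 0x760007b000020003d0000400005, 0x0, 0x0, 0x7e0008100002000400000200005, 0x0, 0x800005c00044000240001900027000490005f000850000900042000050000c, 0x0, 0x840008900002000440000200005, 0x0, 0x0, 0x8c000620005600030000350003900059000730008f0000900047000030000c, 0x0, 0x900009300002000490000200005, 0x0, 0x0, 0x960006c0005a0003f00043000470005d0007f00099000000004b000050000c, 0x0, 0x9a0009d000020004e0000400005, 0x0, 0x0, 0xa00007a0006000054000500004c0005f00089000a30000900051000030000c, 0x0, 0xa4000a700002000530000200005, 0x0, 0x0, 0xaa000920008c000670006b0006f000970009d000ad0000000055000050000c, 0x0, 0xaa000940008e00074000790007d000a1000a7000b10000900058000030000c, 0xac0009e0009800083000870008b000a3000a9000b10000000056000050000c] = true := by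
  decide +kernel

theorem factsUpTo91 (h : FactsChecked cert.ep cert.iv cert.words cert.nr 0) :
    FactsChecked cert.ep cert.iv cert.words cert.nr 91 :=
  (FactsChecked.app _ 91 h facts0 rfl)

end CfsgLib.CosetEnum.ON.Alt5
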