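import Cfsg.Agent.CosetEnum.ON.Alt5.Data

/-! Generated: checks of the rows. -/

set_option autoImplicit false
set_option maxRecDepth 100000

namespace CfsgLib.CosetEnum.ON.Alt5

open CfsgLib.CosetEnum

theorem rows0 : allFrom (checkRow epF (fun x => bif Nat.blt x 2 then x ^^^ 1 else x) 91 3 nodeF TF tfF 60) 0 60 = true := by
  decide +kernel

end CfsgLib.CosetEnum.ON.Alt5
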