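import Cfsg.Agent.CosetEnum.ON.Alt5.Facts0
import Cfsg.Agent.CosetEnum.ON.Alt5.Rows0

/-! Generated: the checked certificate. -/

set_option autoImplicit false
set_option maxRecDepth 100000

namespace CfsgLib.CosetEnum.ON.Alt5

open CfsgLib.CosetEnum

theorem facts : FactsChecked cert.ep cert.iv cert.words cert.nr 91 :=
  (factsUpTo91 FactsChecked.zero)

theorem rows : ∀ i < cert.n, checkRow cert.ep cert.iv 91 cert.L cert.node cert.T cert.tf cert.n i = true :=
  RangeChecked.all (RangeChecked.app 60 60 RangeChecked.zero rows0 rfl)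

theorem node_zero : cert.node 0 = 0 := by decide +kernel

theorem n_pos : 0 < cert.n := by decide +kernel

end CfsgLib.CosetEnum.ON.Alt5
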